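import Cfsg.Agent.GM.N
import Cfsg.Agent.Loc.Core
import Cfsg.Agent.PLocal.Constraint
import Cfsg.Agent.Hyp.FTProof

/-! A centric 2-subgroup with nonsolvable normalizer which is the radical of its normalizer. -/

set_option autoImplicit false

namespace CF.GM.S0
open Subgroup Function CF.Loc Cfsg

variable {G : Type*} [Group G] [Finite G]

local instance : Fact (Nat.Prime 2) := ⟨Nat.prime_two⟩

def Ce (Q : Subgroup G) : Prop :=
  IsPGroup 2 Q ∧ (∀ x, (∃ k, x ^ 2 ^ k = 1) → x ∈ 𝐂(Q) → x ∈ Q) ∧ ¬ Group.IsSolvable 𝐍(Q)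

abbrev rho (N : Type*) [Group N] : N →* N ⧸ oddCore N := QuotientGroup.mk' (oddCore N)

theorem sol {N : Type*} [Group N] [Finite N] (h : Group.IsSolvable (N ⧸ oddCore N)) : Group.IsSolvable N := by
  haveI := CF.Hyp.isSolvable_of_odd (G := oddCore N) (Nat.coprime_two_right.1 CF.Solv.pPrimeCore_coprime)
  exact Group.isSolvable_of_ker_le_range (oddCore _).subtype (rho N) (by simp)

theorem step {T : Subgroup G} (t : IsPGroup 2 T) (n : ¬ Group.IsSolvable 𝐍(T)) (c : IsPConstrained 2 𝐍(T)) :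
    ∃ Q, T ≤ Q ∧ Ce Q ∧ (Q.subgroupOf 𝐍(T)).map (rho _) = pCore 2 _ := by
  haveI : (T.subgroupOf 𝐍(T)).Normal := normal_in_normalizer
  haveI := (inferInstance : (T.subgroupOf 𝐍(T)).Normal).map (rho 𝐍(T)) (QuotientGroup.mk'_surjective _)
  obtain ⟨Q, s, l⟩ := exists_isSyl_ge (isPGroup_subgroupOf (L := 𝐍(T)) t) (L := pPrimePCore 2 𝐍(T))
    (map_le_iff_le_comap.1 (le_pCore ((isPGroup_subgroupOf t).map (rho 𝐍(T)))))
  have e : Q.map (rho _) = pCore 2 _ := by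
    have := s.map (rho _)
    rw [CF.Solv.map_pPrimePCore] at this
    exact this.eq_of_isPGroup (isPGroup_pCore _ _)
  have l' : T ≤ Q.map (𝐍(T)).subtype := (map_subgroupOf_eq_of_le le_normalizer).ge.trans (map_mono l)
  refine ⟨Q.map (𝐍(T)).subtype, l', ⟨s.isPGroup.map _, fun x ⟨k, hk⟩ hx => ?_, fun h => n (sol ?_)⟩, by
    rw [subgroupOf, comap_map_eq_self_of_injective (subtype_injective _), e]⟩
  · have m : x ∈ 𝐍(T) := centralizer_le_normalizer_of_le l' hx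
    have z : (⟨x, m⟩ : 𝐍(T)) ∈ 𝐂(Q) := fun y hy => Subtype.ext (hx _ ⟨y, hy, rfl⟩)
    refine ⟨⟨x, m⟩, s.le_of_le_normalizer' (isPGroup_zpowers (k := k) (Subtype.ext hk)) (zpowers_le.2
      (CF.PLocal.isPConstrained_iff.1 c ?_)) (zpowers_le.2 (centralizer_le_normalizer _ z)) (mem_zpowers _), rfl⟩
    rw [← e]
    rintro _ ⟨y, hy, rfl⟩
    rw [← map_mul, ← map_mul, z y hy]
  · haveI : Group.IsSolvable 𝐍(Q) := Group.isSolvable_of_isSolvable_injective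
      (f := ((𝐍(T)).subtype.comp (𝐍(Q)).subtype).codRestrict 𝐍(Q.map (𝐍(T)).subtype) fun x =>
        le_normalizer_map _ ⟨_, x.2, rfl⟩) fun a b q => Subtype.ext (Subtype.ext (by
          have := congrArg Subtype.val q; exact this))
    refine Group.isSolvable_of_surjective (f := (rho _).comp (𝐍(Q)).subtype) fun y => ?_
    obtain ⟨y, rfl⟩ := QuotientGroup.mk'_surjective _ y
    obtain ⟨a, ha, m, hm, rfl⟩ := s.frattini (g := y) (le_normalizer_of_normal (mem_top y))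
    obtain ⟨q, hq, f⟩ := e.ge ha
    exact ⟨⟨q * m, mul_mem (le_normalizer hq) hm⟩, (map_mul (rho _) q m).trans (by rw [f, ← map_mul])⟩

theorem odd_res {Q : Subgroup G} (h : ∀ x, (∃ k, x ^ 2 ^ k = 1) → x ∈ 𝐂(Q) → x ∈ Q) :
    (Nat.card (pResidualOf 2 𝐂(Q))).Coprime 2 := by
  obtain ⟨P⟩ : Nonempty (Sylow 2 𝐂(Q)) := inferInstance
  have hP : normalizer ((P : Subgroup 𝐂(Q)) : Set 𝐂(Q)) ≤ centralizer (P : Set 𝐂(Q)) := fun x _ y hy => by
    obtain ⟨k, hk⟩ := isPGroup_iff_forall.1 P.isPGroup' y hy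
    exact Subtype.ext (x.2 y (h y ⟨k, congrArg Subtype.val hk⟩ y.2))
  have : pResidualOf 2 𝐂(Q) ≤ (MonoidHom.transferSylow P hP).ker.map (Subgroup.subtype _) :=
    pResidualOf_le_of_pow_mem fun x hx => by
      obtain ⟨k, hk⟩ := P.isPGroup' (MonoidHom.transferSylow P hP ⟨x, hx⟩)
      exact ⟨k, ⟨x, hx⟩ ^ 2 ^ k, by rw [SetLike.mem_coe, MonoidHom.mem_ker, map_pow, hk], rfl⟩
  refine Nat.Coprime.coprime_dvd_left (card_dvd_of_le this) ?_
  rw [card_map_of_injective (subtype_injective _)]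
  exact (Nat.prime_two.coprime_iff_not_dvd.2 (MonoidHom.not_dvd_card_ker_transferSylow P hP)).symm

variable {Q : Subgroup G}

theorem inj (t : IsPGroup 2 Q) {N : Subgroup G} {x y : N} (hx : (x : G) ∈ Q) (hy : (y : G) ∈ Q)
    (e : rho N x = rho N y) : x = y :=
  inv_mul_eq_one.1 (eq_one_of_coprime_of_mem (isPGroup_subgroupOf (L := N) t) (mul_mem (inv_mem hx) hy)
    (orderOf_coprime_of_mem CF.Solv.pPrimeCore_coprime (QuotientGroup.eq.1 e)))

theorem cen_of (t : IsPGroup 2 Q) {x : 𝐍(Q)} (h : rho _ x ∈ 𝐂((Q.subgroupOf 𝐍(Q)).map (rho _))) : (x : G) ∈ 𝐂(Q) :=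
  fun y hy => by
    have := inj t (x := x⁻¹ * ⟨y, le_normalizer hy⟩ * x) (y := ⟨y, le_normalizer hy⟩)
      (conj_mem_of_mem_normalizer' x.2 hy) hy (by
        rw [map_mul, map_mul, mul_assoc, h _ ⟨⟨y, le_normalizer hy⟩, hy, rfl⟩, map_inv, inv_mul_cancel_left])
    have := congrArg Subtype.val this
    simp only [coe_mul, coe_inv] at this
    conv_rhs => rw [← this]
    group

theorem Ce.bar (h : Ce Q) {x : 𝐍(Q)} (hx : (x : G) ∈ 𝐂(Q)) : rho _ x ∈ (Q.subgroupOf 𝐍(Q)).map (rho _) := by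
  obtain ⟨a, b, ha, hb, ⟨k, hk⟩, o, e⟩ := exists_p_part (p := 2) (isOfFinOrder_of_finite x)
  have l : zpowers x ≤ (𝐂(Q)).subgroupOf _ := zpowers_le.2 hx
  haveI : ((pResidualOf 2 𝐂(Q)).subgroupOf 𝐍(Q)).Normal := normal_subgroupOf_of_le_normalizer
    ((normalizer_le_normalizer_centralizer Q).trans (normalizer_le_normalizer_pResidualOf _ _))
  refine ⟨a, h.2.1 a ⟨k, congrArg Subtype.val (hk ▸ pow_orderOf_eq_one a)⟩ (l ha), ?_⟩
  rw [e, map_mul, show rho _ b = 1 from (QuotientGroup.eq_one_iff b).2 (CF.Solv.le_pPrimeCore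
    (N := (pResidualOf 2 𝐂(Q)).subgroupOf 𝐍(Q)) (Nat.Coprime.coprime_dvd_left
      (card_comap_dvd_of_injective _ _ (subtype_injective _)) (odd_res h.2.1))
    (mem_pResidualOf (l hb) ((orderOf_coe b).symm ▸ o :))), mul_one]

theorem Ce.con (h : Ce Q) : IsPConstrained 2 𝐍(Q) := by
  haveI : (Q.subgroupOf 𝐍(Q)).Normal := normal_in_normalizer
  haveI := (inferInstance : (Q.subgroupOf 𝐍(Q)).Normal).map (rho 𝐍(Q)) (QuotientGroup.mk'_surjective _)
  have l := le_pCore ((isPGroup_subgroupOf (L := 𝐍(Q)) h.1).map (rho 𝐍(Q)))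
  refine CF.PLocal.isPConstrained_iff.2 fun y hy => ?_
  obtain ⟨x, rfl⟩ := QuotientGroup.mk'_surjective _ y
  exact l (h.bar (cen_of h.1 (centralizer_anti l hy)))

theorem exQ {T : Subgroup G} (t : IsPGroup 2 T) (n : ¬ Group.IsSolvable 𝐍(T)) (c : IsPConstrained 2 𝐍(T)) :
    ∃ Q : Subgroup G, Ce Q ∧ (Q.subgroupOf 𝐍(Q)).map (rho _) = pCore 2 _ := by
  obtain ⟨Q, -, h, -⟩ := step t n c
  obtain ⟨Q, -, m⟩ := Finite.exists_le_maximal (p := Ce) h
  obtain ⟨R, l, k, e⟩ := step m.1.1 m.1.2.2 m.1.con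
  rw [le_antisymm (m.2 k l) l] at e
  exact ⟨Q, m.1, e⟩

end CF.GM.S0
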